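import Cfsg.Agent.H63.KgvSpec

/-! # Slot KGV-JGL: gluing -/

set_option autoImplicit false

namespace H77.KgvGL

open Finset Cfsg H63.Kgv

universe u

theorem ind_one {E : Type u} [Group E] [Fintype E] (H : Subgroup E) [hH : H.Normal] (y : E) :
    (y ∈ H → indFun H (fun _ => (1 : ℂ)) y = H.index) ∧
      (y ∉ H → indFun H (fun _ => (1 : ℂ)) y = 0) := by
  have hc : ∀ x : E, x⁻¹ * y * x ∈ H ↔ y ∈ H := fun x =>
    ⟨fun h => by simpa [mul_assoc] using hH.conj_mem _ h x,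
      fun h => by simpa using hH.conj_mem _ h x⁻¹⟩
  refine ⟨fun hy => ?_, fun hy => ?_⟩
  · have e : ∀ x : E, extendByZero H (fun _ => (1 : ℂ)) (x⁻¹ * y * x) = 1 := fun x =>
      (Subtype.val_injective (p := (· ∈ H))).extend_apply (fun _ => (1 : ℂ)) (0 : E → ℂ)
        (⟨_, (hc x).2 hy⟩ : H)
    have h0 : (Nat.card H : ℂ) ≠ 0 := Nat.cast_ne_zero.2 Nat.card_pos.ne'
    have h1 : (Fintype.card E : ℂ) = Nat.card H * H.index := by
      rw [← Nat.card_eq_fintype_card, ← H.card_mul_index, Nat.cast_mul]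
    simp only [indFun, e, sum_const, card_univ, nsmul_eq_mul, mul_one]
    rw [h1, inv_mul_cancel_left₀ h0]
  · have e : ∀ x : E, extendByZero H (fun _ => (1 : ℂ)) (x⁻¹ * y * x) = 0 := fun x =>
      Function.extend_apply' _ _ _ fun ⟨a, ha⟩ => hy ((hc x).1 (ha ▸ a.2))
    simp only [indFun, e, sum_const_zero, mul_zero]

theorem job : JGL.{u} := by
  intro gc p _ E _ _ H _ r n m Γ f hr hΓ hf
  obtain ⟨g1, g2, g3, -, -, g6, g7, g8⟩ := gc p E
  let _ : Fintype H := Fintype.ofFinite H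
  obtain ⟨k1, -, -, -, -, k6, -, -⟩ := gc p H
  -- the constant `1` is a generalized character
  have one : ∀ c : ZMod p, Good p E fun t _ => ee p (t * c) := fun c => by
    obtain ⟨Θ, h1, h2⟩ := g6 1
    refine ⟨fun d => Θ (d - c), fun d => h1 _, fun t ht y => ?_⟩
    have h3 : ((1 : ℤ) : ℂ) = ∑ d : ZMod p, ee p (t * d) * Θ d y := h2 t ht y
    rw [← Equiv.sum_comp (Equiv.addRight c)]
    simp only [Equiv.coe_addRight, add_sub_cancel_right, mul_add, AddChar.map_add_eq_mul]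
    calc ee p (t * c) = ee p (t * c) * ((1 : ℤ) : ℂ) := by simp
      _ = _ := by
        rw [h3, mul_sum]
        exact sum_congr rfl fun d _ => by ring
  have hS : Good p E fun t _ => ∑ c : ZMod p, (m c : ℂ) * ee p (t * c) :=
    (g8 (ZMod p) univ (fun c t _ => (m c : ℂ) * ee p (t * c))
      fun c _ => g3 _ _ (g6 (m c)) (one c)).1
  have hU : Good p E fun t _ => 1 + r * ∑ c : ZMod p, (m c : ℂ) * ee p (t * c) :=
    g1 _ _ (g2 _ _ (g6 1) (g3 _ _ (g6 r) hS)) fun t _ y => by simp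
  have hP : ∀ i : ℕ, Good p E fun t _ => (1 + r * ∑ c : ZMod p, (m c : ℂ) * ee p (t * c)) ^ i :=
    fun i => g1 _ _ (g8 ℕ (range i) (fun _ t _ => 1 + r * ∑ c : ZMod p, (m c : ℂ) * ee p (t * c))
      fun _ _ => hU).2 fun t _ y => by simp
  have hG := (g8 ℕ (range n) (fun i t _ => (1 + r * ∑ c : ZMod p, (m c : ℂ) * ee p (t * c)) ^ i)
    fun i _ => hP i).1
  have hI : Good p E fun _ => indFun H (fun _ => (1 : ℂ)) :=
    g7 H (fun _ _ => 1) (k1 _ _ (k6 1) fun t _ y => by simp)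
  have hR := g2 _ _ (g6 r) (g3 _ _ (g6 (-1)) hI)
  refine g1 _ _ (g2 _ _ hΓ (g3 _ _ (g3 _ _ hR (g3 _ _ hG hS)) hΓ)) fun t ht y => ?_
  by_cases hy : y ∈ H
  · rw [(hf t ht).1 y hy, (ind_one H y).1 hy, hr]
    simp
  · rw [(hf t ht).2 y hy, (ind_one H y).2 hy]
    have := geom_sum_mul (1 + r * ∑ c : ZMod p, (m c : ℂ) * ee p (t * c)) n
    push_cast
    linear_combination (-Γ t y) * this

end H77.KgvGL
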