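/- Jobs COV-NF and COV-S6U: unipotent elements of `Sp₆` in characteristic three. -/
import Cfsg.Agent.H60.CovSpec

set_option autoImplicit false

open H60.Cov Module Submodule

namespace H77.Cov

variable {F V : Type} [Field F] [AddCommGroup V] [Module F V] {B : LinearMap.BilinForm F V}

theorem three [CharP F 3] : (3 : F) = 0 := CharP.cast_eq_zero F 3

theorem c1 {a b : V} (h : (1 : F) • a = b) : a = b := by rwa [one_smul] at h

theorem block [CharP F 3] {D k : End F V} {x : V} {δ : F} (d3 : ∀ u, D (D (D u)) = 0)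
    (k0 : k x = D x - δ • D (D x)) (k1 : k (D x) = -x - D (D x)) (k2 : k (D (D x)) = D x) :
    ∀ z ∈ [x, D x, D (D x)], (k ^ 3 - k) z = (δ • (1 : End F V)) z ∧
      ((1 + D - D ^ 2) * k : End F V) z = ((k + 1) * (1 + D - D ^ 2) : End F V) z := by
  simp only [List.mem_cons, List.not_mem_nil, or_false]
  rintro _ (rfl | rfl | rfl) <;> constructor <;> refine c1 (F := F) ?_ <;>
    simp only [pow_succ, pow_zero, End.mul_apply, End.one_apply, LinearMap.sub_apply, LinearMap.add_apply,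
      LinearMap.smul_apply, map_add, map_sub, map_smul, map_neg, map_zero, k0, k1, k2, d3] <;>
    match_scalars <;> grobner

theorem jobNF : JobNF := by
  intro F V _ _ _ _ _ B hA h6 D x y δ sk D3 h1 h2 h3 h4 h5
  have d3 : ∀ u, D (D (D u)) = 0 := fun u => congrArg (· u) D3
  have ev : ∀ u, B u (D (D u)) = 0 := fun u => by rw [← neg_eq_zero, ← sk, hA]
  have e0 : ∀ u, B u u = 0 := hA
  have y0 : B y x = 0 := by rw [← hA.neg_eq, h3, neg_zero]
  have y1 : B y (D x) = 0 := by rw [← hA.neg_eq, sk, h4, neg_zero, neg_zero]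
  have y2 : B y (D (D x)) = -B x (D (D y)) := by rw [← hA.neg_eq, sk, sk, neg_neg]
  have li : LinearIndependent F ![x, D x, D (D x), y, D y, D (D y)] :=
    Fintype.linearIndependent_iff.2 fun c e i => by
      have p := fun w => congrArg (B · w) e
      have p0 := p (D (D y))
      have p1 := p (D y)
      have p2 := p y
      have p3 := p (D (D x))
      have p4 := p (D x)
      have p5 := p x
      simp [Fin.sum_univ_six, sk, d3, ev, e0, y0, y1, y2, h1, h2, h3, h4, h5] at p0 p1 p2 p3 p4 p5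
      fin_cases i <;> assumption
  let b := basisOfLinearIndependentOfCardEqFinrank li (by simp [h6])
  have hb : ∀ i, b i = ![x, D x, D (D x), y, D y, D (D y)] i := by simp [b]
  obtain ⟨k, hk⟩ : ∃ k : End F V, ∀ i, k (![x, D x, D (D x), y, D y, D (D y)] i) =
      ![D x - δ • D (D x), -x - D (D x), D x, D y - δ • D (D y), -y - D (D y), D y] i :=
    ⟨b.constr F _, fun i => hb i ▸ b.constr_basis F _ i⟩
  have k0 : k x = _ := hk 0
  have k1 : k (D x) = _ := hk 1
  have k2 : k (D (D x)) = _ := hk 2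
  have k3 : k y = _ := hk 3
  have k4 : k (D y) = _ := hk 4
  have k5 : k (D (D y)) = _ := hk 5
  simp only [Matrix.cons_val] at k0 k1 k2 k3 k4 k5
  have bl : ∀ i, _ ∧ _ := fun i => (show b i ∈ _ ∨ b i ∈ _ by fin_cases i <;> simp [hb]).elim
    (block d3 k0 k1 k2 _) (block d3 k3 k4 k5 _)
  refine ⟨k, ⟨fun u v => LinearMap.congr_fun₂ (LinearMap.ext_basis b b (B := B.compLeft k)
    (B' := B.compRight k) fun i j => ?_) u v, b.ext fun i => ?_⟩, b.ext fun i => ?_,
    fun θ c hx hy => b.ext fun i => ?_⟩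
  · fin_cases i <;> fin_cases j <;>
      simp [hb, k0, k1, k2, k3, k4, k5, sk, d3, ev, e0, y0, y1, y2, h1, h2, h3, h4]
  · exact (bl i).1
  · exact (bl i).2
  · have c : ∀ u, θ (D u) = D (θ u) := fun u => congrArg (· u) c
    obtain ⟨p, q, hx⟩ := mem_span_pair.1 hx
    obtain ⟨r, s, hy⟩ := mem_span_pair.1 hy
    fin_cases i <;> simp [hb, k0, k1, k2, k3, k4, k5, c, ← hx, ← hy] <;> module

/-- a skew map that is not zero is not alternating -/
theorem ex_self [CharP F 3] (hA : B.IsAlt) (hB : B.Nondegenerate) {A : End F V}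
    (sk : ∀ u v, B (A u) v = -B u (A v)) (h : A ≠ 0) : ∃ v, B v (A v) ≠ 0 := by
  by_contra! n
  refine h (LinearMap.ext fun y => hB.2 _ fun x => ?_)
  have := n (x + y)
  simp only [map_add, LinearMap.add_apply, n, ← hA.neg_eq (A x) y, sk] at this
  linear_combination -this + B x (A y) * three (F := F)

theorem sa_self [CharP F 3] (hA : B.IsAlt) {A : End F V} (sa : ∀ u v, B (A u) v = B u (A v)) (v : V) :
    B v (A v) = 0 := by
  have := hA.neg_eq (A v) v
  rw [sa] at this
  linear_combination this + B v (A v) * three (F := F)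

variable [FiniteDimensional F V]

theorem pl_sub (hA : B.IsAlt) {W : Submodule F V} (h2 : finrank F W = 2)
    (nd : ∀ x ∈ W, (∀ y ∈ W, B x y = 0) → x = 0) {g : End F V} (hg : ∀ x ∈ W, g x ∈ W) : Pl B g := by
  obtain ⟨x, hx, x0⟩ := W.exists_mem_ne_zero_of_ne_bot (by rintro rfl; simp at h2)
  obtain ⟨y, hy, n⟩ : ∃ y ∈ W, B x y ≠ 0 := by by_contra! n; exact x0 (nd x hx n)
  have li : LinearIndependent F ![x, y] := LinearIndependent.pair_iff.2 fun s t e => by
    have p := congrArg (B x) e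
    have q := congrArg (B · y) e
    simp [hA x, hA y, n] at p q
    exact ⟨q, p⟩
  have : span F {x, y} = W := eq_of_le_of_finrank_eq (span_le.2 (Set.pair_subset hx hy)) (by
    rw [h2, ← Fintype.card_fin 2, ← finrank_span_eq_card li, Matrix.range_cons_cons_empty])
  exact ⟨x, y, n, this ▸ hg x hx, this ▸ hg y hy⟩

theorem pl_orth (hA : B.IsAlt) (hB : B.Nondegenerate) (h6 : finrank F V = 6) {U : Submodule F V}
    (h4 : finrank F U = 4) (nd : ∀ x ∈ U, (∀ y ∈ U, B x y = 0) → x = 0) {g : End F V}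
    (hg : ∀ u ∈ U, ∃ u' ∈ U, ∀ w, B u (g w) = B u' w) : Pl B g := by
  have c : IsCompl U (B.orthogonal U) := LinearMap.BilinForm.isCompl_orthogonal_of_restrict_nondegenerate
    hA.isRefl (B.nondegenerate_restrict_of_disjoint_orthogonal hA.isRefl (disjoint_def.2
      fun x hx h => nd x hx fun y hy => hA.isRefl _ _ (h y hy)))
  refine pl_sub hA (W := B.orthogonal U) (by rw [B.finrank_orthogonal hB, h6, h4]) (fun x hx h =>
    hB.1 x fun y => ?_) fun x hx u hu => ?_
  · obtain ⟨a, ha, b, hb, rfl⟩ := mem_sup.1 (c.sup_eq_top.ge (mem_top (x := y)))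
    rw [map_add, h b hb, hA.isRefl _ _ (hx a ha), add_zero]
  · obtain ⟨u', h1, h2⟩ := hg u hu
    exact (h2 x).trans (hx u' h1)

theorem pl4 (hA : B.IsAlt) (hB : B.Nondegenerate) (h6 : finrank F V = 6) (v : Fin 4 → V)
    (nd : ∀ c : Fin 4 → F, (∀ j, B (∑ i, c i • v i) (v j) = 0) → ∀ i, c i = 0) {g : End F V}
    (hg : ∀ i, ∃ u ∈ span F (Set.range v), ∀ w, B (v i) (g w) = B u w) : Pl B g := by
  refine pl_orth hA hB h6 (U := span F (Set.range v)) (by
    rw [finrank_span_eq_card (Fintype.linearIndependent_iff.2 fun c e => nd c fun j => by simp [e])]; rfl)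
    (fun x hx h => ?_) fun u hu => ?_
  · obtain ⟨c, rfl⟩ := (mem_span_range_iff_exists_fun F).1 hx
    simp [nd c fun j => h _ (subset_span ⟨j, rfl⟩)]
  · obtain ⟨c, rfl⟩ := (mem_span_range_iff_exists_fun F).1 hu
    choose u h1 h2 using hg
    exact ⟨∑ i, c i • u i, sum_mem fun i _ => smul_mem _ _ (h1 i), fun w => by simp [h2]⟩

theorem case3 [CharP F 3] (hA : B.IsAlt) (hB : B.Nondegenerate) (h6 : finrank F V = 6) {D : End F V}
    (sk : ∀ u v, B (D u) v = -B u (D v)) (D3 : D ^ 3 = 0) (n : D ^ 2 ≠ 0) (δ : F) :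
    Fl B δ (1 + D - D ^ 2) := by
  have d3 : ∀ u, D (D (D u)) = 0 := fun u => congrArg (· u) D3
  have ev : ∀ u, B u (D (D u)) = 0 := fun u => by rw [← neg_eq_zero, ← sk, hA]
  have y1 : ∀ x y, B y (D x) = B x (D y) := fun x y => by rw [← hA.neg_eq, sk, neg_neg]
  have y2 : ∀ x y, B y (D (D x)) = -B x (D (D y)) := fun x y => by rw [← hA.neg_eq, sk, sk, neg_neg]
  have s1 : ∀ x y, B x (D (D y)) ≠ 0 → ∃ x', B x' (D x') = 0 ∧ B x' (D (D y)) ≠ 0 := fun x y t => by
    obtain ⟨a, ha⟩ : ∃ a, B x (D x) - a * B x (D (D y)) = 0 :=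
      ⟨_ / B x (D (D y)), by rw [div_mul_cancel₀ _ t, sub_self]⟩
    refine ⟨x + a • D y, ?_, by simpa [sk, d3] using t⟩
    simp [sk, d3, y2 x y]
    linear_combination ha + a * B x (D (D y)) * three (F := F)
  obtain ⟨y, hy⟩ := DFunLike.ne_iff.1 n
  obtain ⟨x, t⟩ : ∃ x, B x (D (D y)) ≠ 0 := by by_contra! m; exact hy (hB.2 _ m)
  obtain ⟨x, x1, t⟩ := s1 x y t
  obtain ⟨y, y0, t⟩ := s1 y x (by rwa [y2, neg_ne_zero])
  rw [y2, neg_ne_zero] at t
  obtain ⟨a, ha⟩ : ∃ a, B x (D y) + a * B x (D (D y)) = 0 := ⟨-B x (D y) / B x (D (D y)), by field_simp; ring⟩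
  obtain ⟨b, hb⟩ : ∃ b, B x y + a * B x (D y) + b * B x (D (D y)) = 0 :=
    ⟨-(B x y + a * B x (D y)) / B x (D (D y)), by field_simp; ring⟩
  obtain ⟨k, h1, h2, -⟩ := jobNF F V B hA h6 D x (y + a • D y + b • D (D y)) δ sk D3 x1
    (by simp [sk, d3, ev, y0]) (by simpa using hb) (by simpa [d3] using ha) (by simpa [d3] using t)
  exact ⟨k, 1, h1, by rwa [one_smul]⟩

theorem case5 [CharP F 3] (hA : B.IsAlt) (hB : B.Nondegenerate) (h6 : finrank F V = 6) {D : End F V}
    (sk : ∀ u v, B (D u) v = -B u (D v)) (D5 : D ^ 5 = 0) : D ^ 4 = 0 := by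
  have d5 : ∀ u, D (D (D (D (D u)))) = 0 := fun u => congrArg (· u) D5
  refine LinearMap.ext fun y => hB.2 _ fun x => by_contra fun t => ?_
  replace t : B x (D (D (D (D y)))) ≠ 0 := t
  have ev : ∀ u, B u (D (D (D (D u)))) = 0 := fun u => by rw [← neg_eq_zero, ← sk, ← neg_eq_zero, ← sk, hA]
  have y4 : B y (D (D (D (D x)))) = -B x (D (D (D (D y)))) := by
    rw [← hA.neg_eq, sk, sk, sk, sk, neg_neg, neg_neg]
  have k : ∀ a b : F, a • D (D (D (D x))) + b • D (D (D (D y))) = 0 → a = 0 ∧ b = 0 := fun a b e => by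
    have p := congrArg (B x) e
    have q := congrArg (B y) e
    simp [ev, y4, t] at p q
    exact ⟨q, p⟩
  have li : LinearIndependent F ![x, y, D x, D y, D (D x), D (D y), D (D (D x)), D (D (D y))] :=
    Fintype.linearIndependent_iff.2 fun c e i => by
      simp only [Fin.sum_univ_eight, Matrix.cons_val] at e
      have e1 := congrArg D e
      have e2 := congrArg D e1
      have e3 := congrArg D e2
      have e4 := congrArg D e3
      simp only [map_add, map_smul, map_zero, d5, smul_zero, add_zero] at e1 e2 e3 e4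
      obtain ⟨p0, p1⟩ := k _ _ e4
      obtain ⟨p2, p3⟩ := k (c 2) (c 3) (by simpa [p0, p1] using e3)
      obtain ⟨p4, p5⟩ := k (c 4) (c 5) (by simpa [p0, p1, p2, p3] using e2)
      obtain ⟨p6, p7⟩ := k (c 6) (c 7) (by simpa [p0, p1, p2, p3, p4, p5] using e1)
      fin_cases i <;> assumption
  have := li.fintype_card_le_finrank
  rw [Fintype.card_fin] at this
  omega

omit [FiniteDimensional F V] in
set_option maxHeartbeats 800000 in
theorem case6 [CharP F 3] (hA : B.IsAlt) (h6 : finrank F V = 6) {D : End F V}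
    (sk : ∀ u v, B (D u) v = -B u (D v)) (d6 : ∀ u, D (D (D (D (D (D u))))) = 0) {v : V}
    (h1 : B v (D v) = 0) (h3 : B v (D (D (D v))) = 0) (h5 : B v (D (D (D (D (D v))))) ≠ 0) (δ : F) :
    Fl B δ (1 - D - D ^ 2 - D ^ 3 - D ^ 4 - D ^ 5) := by
  have h0 : B v v = 0 := hA v
  have h2 : B v (D (D v)) = 0 := by rw [← neg_eq_zero, ← sk, hA]
  have h4 : B v (D (D (D (D v)))) = 0 := by rw [← neg_eq_zero, ← sk, ← neg_eq_zero, ← sk, hA]
  have li : LinearIndependent F ![v, D v, D (D v), D (D (D v)), D (D (D (D v))), D (D (D (D (D v))))] :=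
    Fintype.linearIndependent_iff.2 fun c e i => by
      have p := fun w => congrArg (B · w) e
      have p0 := p (D (D (D (D (D v)))))
      have p1 := p (D (D (D (D v))))
      have p2 := p (D (D (D v)))
      have p3 := p (D (D v))
      have p4 := p (D v)
      have p5 := p v
      simp [Fin.sum_univ_six, sk, d6, h0, h1, h2, h3, h4, h5] at p0 p1 p2 p3 p4 p5
      fin_cases i <;> assumption
  let b := basisOfLinearIndependentOfCardEqFinrank li (by simp [h6])
  have hb : ∀ i, b i = ![v, D v, D (D v), D (D (D v)), D (D (D (D v))), D (D (D (D (D v))))] i := by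
    simp [b]
  obtain ⟨k, hk⟩ : ∃ k : End F V, ∀ i,
      k (![v, D v, D (D v), D (D (D v)), D (D (D (D v))), D (D (D (D (D v))))] i) =
      ![-D v - δ • D (D v), v + D (D v) - δ • D (D (D v)), -D v - δ • D (D (D (D v))),
        -D (D (D (D v))) - δ • D (D (D (D (D v)))), D (D (D v)) + D (D (D (D (D v)))),
        -D (D (D (D v)))] i :=
    ⟨b.constr F _, fun i => hb i ▸ b.constr_basis F _ i⟩
  have k0 : k v = _ := hk 0
  have k1 : k (D v) = _ := hk 1
  have k2 : k (D (D v)) = _ := hk 2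
  have k3 : k (D (D (D v))) = _ := hk 3
  have k4 : k (D (D (D (D v)))) = _ := hk 4
  have k5 : k (D (D (D (D (D v))))) = _ := hk 5
  simp only [Matrix.cons_val] at k0 k1 k2 k3 k4 k5
  refine ⟨k, 1, ⟨fun u v => LinearMap.congr_fun₂ (LinearMap.ext_basis b b (B := B.compLeft k)
    (B' := B.compRight k) fun i j => ?_) u v, b.ext fun i => ?_⟩, b.ext fun i => ?_⟩
  · fin_cases i <;> fin_cases j <;> simp [hb, k0, k1, k2, k3, k4, k5, sk, d6, h0, h1, h2, h3, h4]
  all_goals
    rw [hb]
    clear hb hk b li h0 h1 h2 h3 h4 h5 sk hA h6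
    fin_cases i <;> refine c1 (F := F) ?_ <;>
    simp only [pow_succ, pow_zero, End.mul_apply, End.one_apply, LinearMap.sub_apply, LinearMap.add_apply,
      LinearMap.smul_apply, map_add, map_sub, map_smul, map_neg, map_zero, k0, k1, k2, k3, k4, k5, d6,
      Matrix.cons_val, Fin.zero_eta, Fin.mk_one, Fin.reduceFinMk] <;>
    match_scalars <;> grobner

theorem jobS6U : JobS6U := by
  intro F V _ _ _ _ _ B hA hB h6 g δ iso nil
  have t3 : (3 : End F V) = 0 := by
    rw [← map_ofNat (algebraMap F (End F V)), three, map_zero]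
  obtain ⟨w, hw⟩ : IsUnit (g + 1) := by
    rw [show g + 1 = g - 1 - 1 + 3 by norm_num [sub_sub, sub_add], t3, add_zero]
    exact nil.isUnit_sub_one
  have cw : Commute (g - 1) (w⁻¹ : (End F V)ˣ) := Commute.units_inv_right (hw ▸
    ((Commute.refl g).add_right (.one_right g)).sub_left (.one_left _))
  obtain ⟨D, hD⟩ : ∃ D : End F V, D = (g - 1) * (w⁻¹ : (End F V)ˣ) := ⟨_, rfl⟩
  have e1 : D * (g + 1) = g - 1 := by rw [hD, ← hw, Units.inv_mul_cancel_right]
  have sk : ∀ u v, B (D u) v = -B u (D v) := fun u v => by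
    have su : ∀ u, ∃ a, g a + a = u := fun u => ⟨(w⁻¹ : (End F V)ˣ).1 u,
      congrArg (· u) (hw ▸ w.mul_inv : (g + 1) * (w⁻¹ : (End F V)ˣ) = 1)⟩
    have e : ∀ a, D (g a + a) = g a - a := fun a => congrArg (· a) e1
    obtain ⟨a, rfl⟩ := su u
    obtain ⟨b, rfl⟩ := su v
    simp only [e, map_add B, map_sub B, map_add (B _), map_sub (B _), LinearMap.add_apply,
      LinearMap.sub_apply, iso]
    ring
  have D6 : D ^ 6 = 0 := by
    obtain ⟨n, hn⟩ : IsNilpotent D := hD ▸ cw.isNilpotent_mul_right nil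
    exact LinearMap.ext fun u => h6 ▸ End.ker_pow_le_ker_pow_finrank D n (by simp [hn])
  have eg : g = 1 - D - D ^ 2 - D ^ 3 - D ^ 4 - D ^ 5 := by
    have e2 : (1 - D) * g = 1 + D := by linear_combination (norm := noncomm_ring) -e1
    have e3 : (1 + D + D ^ 2 + D ^ 3 + D ^ 4 + D ^ 5) * (1 - D) = 1 := by
      linear_combination (norm := noncomm_ring) -D6
    have e4 := congrArg (· * g) e3
    rw [mul_assoc, e2, one_mul] at e4
    rw [← e4]
    linear_combination (norm := noncomm_ring) D6 + (D + D ^ 2 + D ^ 3 + D ^ 4 + D ^ 5) * t3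
  clear hD e1 cw hw nil iso
  subst eg
  have up : ∀ n, D ^ n = 0 → D ^ (n + 1) = 0 := fun n e => by rw [pow_succ, e, zero_mul]
  by_cases n5 : D ^ 5 = 0
  swap
  · have d6 : ∀ u, D (D (D (D (D (D u))))) = 0 := fun u => congrArg (· u) D6
    obtain ⟨v, t⟩ := ex_self hA hB (A := D ^ 5) (fun u v => by simp [pow_succ, sk]) n5
    replace t : B v (D (D (D (D (D v))))) ≠ 0 := t
    obtain ⟨a, ha⟩ : ∃ a, B v (D (D (D v))) - a * B v (D (D (D (D (D v))))) = 0 :=
      ⟨_ / B v (D (D (D (D (D v))))), by rw [div_mul_cancel₀ _ t, sub_self]⟩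
    obtain ⟨b, hb⟩ : ∃ b, B v (D v) + 2 * a * B v (D (D (D v))) + a * a * B v (D (D (D (D (D v))))) -
        b * B v (D (D (D (D (D v))))) = 0 :=
      ⟨_ / B v (D (D (D (D (D v))))), by rw [div_mul_cancel₀ _ t, sub_self]⟩
    refine .inr (case6 hA h6 sk d6 (v := v + a • D (D v) + b • D (D (D (D v)))) ?_ ?_
      (by simpa [sk, d6] using t) δ) <;> simp [sk, d6]
    · linear_combination hb + b * B v (D (D (D (D (D v))))) * three (F := F)
    · linear_combination ha + a * B v (D (D (D (D (D v))))) * three (F := F)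
  have n4 := case5 hA hB h6 sk n5
  by_cases n3 : D ^ 3 = 0
  swap
  · have d4 : ∀ u, D (D (D (D u))) = 0 := fun u => congrArg (· u) n4
    obtain ⟨v, t⟩ := ex_self hA hB (A := D ^ 3) (fun u v => by simp [pow_succ, sk]) n3
    replace t : B v (D (D (D v))) ≠ 0 := t
    have h2 : B v (D (D v)) = 0 := by rw [← neg_eq_zero, ← sk, hA]
    refine .inl (pl4 hA hB h6 ![v, D v, D (D v), D (D (D v))] (fun c e i => ?_) fun i => ?_)
    · have p0 := e 3
      have p1 := e 2
      have p2 := e 1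
      have p3 := e 0
      simp [Fin.sum_univ_four, sk, d4, h2, hA v, t] at p0 p1 p2 p3
      simp [p0, p1, t] at p2 p3
      fin_cases i <;> assumption
    · have m : ∀ i, ![v, D v, D (D v), D (D (D v))] i ∈ span F (Set.range ![v, D v, D (D v), D (D (D v))]) :=
        fun i => subset_span ⟨i, rfl⟩
      have m' : ∀ u ∈ span F (Set.range ![v, D v, D (D v), D (D (D v))]),
          D u ∈ span F (Set.range ![v, D v, D (D v), D (D (D v))]) := fun u hu =>
        span_le (p := comap D (span F (Set.range ![v, D v, D (D v), D (D (D v))]))) |>.2 (by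
          rintro _ ⟨i, rfl⟩
          fin_cases i
          exacts [m 1, m 2, m 3, mem_comap.2 ((d4 v).symm ▸ zero_mem _)]) hu
      exact ⟨_, add_mem (sub_mem (add_mem (m i) (m' _ (m i))) (m' _ (m' _ (m i)))) (m' _ (m' _ (m' _ (m i)))),
        fun w => by simp [n4, n5, pow_succ, sk]; ring⟩
  by_cases n2 : D ^ 2 = 0
  swap
  · have := case3 hA hB h6 (D := -D) (fun u v => by simp [sk]) (by simp [neg_pow D, n3])
      (by simpa using n2) δ
    exact .inr (by simpa [n3, n4, n5, ← sub_eq_add_neg] using this)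
  have d2 : ∀ u, D (D u) = 0 := fun u => congrArg (· u) n2
  simp only [n2, n3, n4, n5, sub_zero]
  by_cases n1 : D = 0
  · have : Nontrivial V := Module.nontrivial_of_finrank_pos (R := F) (by omega)
    obtain ⟨x, x0⟩ := exists_ne (0 : V)
    obtain ⟨y, t⟩ : ∃ y, B x y ≠ 0 := by by_contra! m; exact x0 (hB.1 _ m)
    exact .inl ⟨x, y, t, subset_span (by simp [n1]), subset_span (by simp [n1])⟩
  · obtain ⟨v, t⟩ := ex_self hA hB sk n1
    exact .inl ⟨v, D v, t, sub_mem (subset_span (by simp)) (subset_span (by simp)),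
      subset_span (by simp [d2])⟩

end H77.Cov
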