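/- Job COV-S6N, part 1: linear algebra lemmas. -/
import Cfsg.Agent.H77.CovA
import Cfsg.Agent.H54.SpBasis

set_option autoImplicit false

open H60.Cov Module Submodule Polynomial

namespace H77.Cov

variable {F V : Type} [Field F] [AddCommGroup V] [Module F V] {B : LinearMap.BilinForm F V}

theorem sa_aeval {h : End F V} (sa : ∀ u v, B (h u) v = B u (h v)) (p : F[X]) (u v : V) :
    B (aeval h p u) v = B u (aeval h p v) := by
  have hp : ∀ n u v, B ((h ^ n) u) v = B u ((h ^ n) v) := fun n => by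
    induction n with
    | zero => simp
    | succ n ih => intro u v; rw [pow_succ, End.mul_apply, ih, sa, ← End.mul_apply h, ← pow_succ', pow_succ]
  induction p using Polynomial.induction_on' with
  | add p q hp hq => simp [hp, hq]
  | monomial n a => simp [aeval_monomial, hp]

theorem co_aeval {h g : End F V} (c : Commute g h) (p : F[X]) : Commute g (aeval h p) := by
  induction p using Polynomial.induction_on' with
  | add p q hp hq => rw [map_add]; exact hp.add_right hq
  | monomial n a => rw [aeval_monomial]; exact (Algebra.commute_algebraMap_right a g).mul_right (c.pow_right n)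

theorem neg_inv {g : End F V} {δ : F} (h : Pl B (-g) ∨ Fl B δ (-g)) : Pl B g ∨ Fl B δ g :=
  h.imp (fun ⟨x, y, t, a, b⟩ => ⟨x, y, t, neg_mem_iff.1 a, neg_mem_iff.1 b⟩)
    fun ⟨k, ε, a, b⟩ => ⟨k, ε, a, by rwa [neg_mul, mul_neg, neg_inj] at b⟩

variable [FiniteDimensional F V]

theorem ti_le (hB : B.Nondegenerate) (h6 : finrank F V = 6) {W : Submodule F V}
    (h : ∀ x ∈ W, ∀ y ∈ W, B x y = 0) : finrank F W ≤ 3 := by
  have := finrank_mono (show W ≤ B.orthogonal W from fun x hx y hy => h y hy x hx)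
  rw [B.finrank_orthogonal hB] at this
  omega

theorem even_ker [CharP F 3] (hA : B.IsAlt) (hB : B.Nondegenerate) (h6 : finrank F V = 6) {A : End F V}
    (sa : ∀ u v, B (A u) v = B u (A v)) : Even (finrank F (LinearMap.ker A)) := by
  obtain ⟨C, hC⟩ := (LinearMap.ker A).exists_isCompl
  have al : ((B.compRight A).restrict C).IsAlt := fun x => sa_self hA sa x.1
  have nd : ((B.compRight A).restrict C).SeparatingLeft := fun x hx => Subtype.ext <|
    disjoint_def.1 hC.disjoint x.1 (hB.1 _ fun y => by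
      obtain ⟨a, ha, b, hb, rfl⟩ := mem_sup.1 (hC.sup_eq_top.ge (mem_top (x := y)))
      rw [sa, map_add, show A a = 0 from ha, zero_add]
      exact hx ⟨b, hb⟩) x.2
  have ev := H54.even_finrank_of_isAlt (al.isRefl.nondegenerate_iff_separatingLeft.2 nd) al
  have := finrank_add_eq_of_isCompl hC
  rw [Nat.even_iff] at ev ⊢
  omega

theorem nd_ker (hA : B.IsAlt) (hB : B.Nondegenerate) {M : End F V} (sa : ∀ u v, B (M u) v = B u (M v))
    (hM : ∀ y, M (M y) = 0 → M y = 0) :
    ∀ x ∈ LinearMap.ker M, (∀ y ∈ LinearMap.ker M, B x y = 0) → x = 0 := by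
  have e : LinearMap.range M = B.orthogonal (LinearMap.ker M) := eq_of_le_of_finrank_eq (by
    rintro _ ⟨y, rfl⟩ x hx
    rw [← sa, show M x = 0 from hx, LinearMap.map_zero₂]) (by
    rw [B.finrank_orthogonal hB, ← M.finrank_range_add_finrank_ker, Nat.add_sub_cancel])
  intro x hx h
  obtain ⟨y, rfl⟩ := e.ge (show x ∈ _ from fun y hy => hA.isRefl _ _ (h y hy))
  exact hM y hx

theorem kill [CharP F 3] (hA : B.IsAlt) (hB : B.Nondegenerate) (h6 : finrank F V = 6) {h : End F V}
    (sa : ∀ u v, B (h u) v = B u (h v)) (x : V) :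
    ∃ p : F[X], p ≠ 0 ∧ p.natDegree ≤ 3 ∧ aeval h p x = 0 := by
  let f : F[X] →ₗ[F] V := LinearMap.applyₗ x ∘ₗ (aeval h).toLinearMap
  have r := ti_le hB h6 (W := LinearMap.range f) (by
    rintro _ ⟨p, rfl⟩ _ ⟨q, rfl⟩
    have := sa_self hA (sa_aeval sa (p * q)) x
    rwa [map_mul, End.mul_apply, ← sa_aeval sa] at this)
  by_contra! n
  have inj : Function.Injective (f.rangeRestrict ∘ₗ (degreeLT F 4).subtype) :=
    (injective_iff_map_eq_zero _).2 fun p hp => Subtype.ext <| by_contra fun p0 =>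
      n p p0 (Nat.lt_succ_iff.1 ((natDegree_lt_iff_degree_lt p0).2 (mem_degreeLT.1 p.2)))
        (congrArg Subtype.val hp)
  have := LinearMap.finrank_le_finrank_of_injective inj
  rw [(degreeLTEquiv F 4).finrank_eq, finrank_fin_fun] at this
  omega

theorem prim [CharP F 3] (hA : B.IsAlt) (hB : B.Nondegenerate) (h6 : finrank F V = 6) {g g' h : End F V}
    (ad : ∀ u v, B u (g v) = B (g' u) v) (sa : ∀ u v, B (h u) v = B u (h v))
    (c : Commute g h) (c' : Commute g' h) :
    Pl B g ∨ ∃ ψ : F[X], ψ.Monic ∧ Irreducible ψ ∧ aeval h ψ ^ (3 / ψ.natDegree) = 0 := by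
  classical
  have : Nontrivial V := Module.nontrivial_of_finrank_pos (R := F) (by omega)
  have hi : IsIntegral F h := Algebra.IsIntegral.isIntegral h
  obtain ⟨ψ, mo, ir, r, hr⟩ := exists_monic_irreducible_factor _ (minpoly.not_isUnit F h)
  have sM := sa_aeval sa (ψ ^ 6)
  have nd := nd_ker hA hB sM fun y hy => by
    have := End.ker_pow_le_ker_pow_finrank (aeval h ψ) 12 (x := y) (by
      rw [show 12 = 6 + 6 from rfl, pow_add, ← map_pow]; exact hy)
    rwa [h6, ← map_pow] at this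
  have ev := even_ker hA hB h6 sM
  have le := (LinearMap.ker (aeval h (ψ ^ 6))).finrank_le
  have inv : ∀ g : End F V, Commute g h → ∀ x ∈ LinearMap.ker (aeval h (ψ ^ 6)),
      g x ∈ LinearMap.ker (aeval h (ψ ^ 6)) := fun g c x hx => by
    rw [LinearMap.mem_ker, ← End.mul_apply, ← (co_aeval c _).eq, End.mul_apply, hx, map_zero]
  have n0 : finrank F (LinearMap.ker (aeval h (ψ ^ 6))) ≠ 0 := fun e => by
    have u : IsUnit (aeval h ψ) := (isUnit_pow_iff (n := 6) (by norm_num)).1 (by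
      rw [← map_pow]; exact (LinearMap.isUnit_iff_ker_eq_bot _).2 (finrank_eq_zero.1 e))
    have z := minpoly.aeval F h
    rw [hr, map_mul, u.mul_right_eq_zero] at z
    have r0 : r ≠ 0 := by rintro rfl; exact minpoly.ne_zero hi (by rw [hr, mul_zero])
    have d := minpoly.dvd F h z
    rw [hr] at d
    nth_rw 2 [← one_mul r] at d
    exact ir.not_isUnit (isUnit_of_dvd_one ((mul_dvd_mul_iff_right r0).1 d))
  rw [Nat.even_iff] at ev
  rcases (by omega : finrank F (LinearMap.ker (aeval h (ψ ^ 6))) = 2 ∨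
    finrank F (LinearMap.ker (aeval h (ψ ^ 6))) = 4 ∨
    finrank F (LinearMap.ker (aeval h (ψ ^ 6))) = finrank F V) with e | e | e
  · exact .inl (pl_sub hA e nd (inv g c))
  · exact .inl (pl_orth hA hB h6 e nd fun u hu => ⟨g' u, inv g' c' u hu, ad u⟩)
  refine .inr ⟨ψ, mo, ir, LinearMap.ext fun x => ?_⟩
  obtain ⟨p, p0, p3, hp⟩ := kill hA hB h6 sa x
  have K : ∀ p q : F[X], aeval h p x = 0 → aeval h (p * q) x = 0 := fun p q e => by
    rw [mul_comm, map_mul, End.mul_apply, e, map_zero]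
  have h0 : aeval h (EuclideanDomain.gcd p (ψ ^ 6)) x = 0 := by
    rw [EuclideanDomain.gcd_eq_gcd_ab, map_add, LinearMap.add_apply, K _ _ hp,
      K _ _ ((eq_top_of_finrank_eq e).ge mem_top), add_zero]
  obtain ⟨i, -, hi⟩ := (dvd_prime_pow ir.prime 6).1 (EuclideanDomain.gcd_dvd_right p (ψ ^ 6))
  have l := natDegree_le_of_dvd (hi.dvd'.trans (EuclideanDomain.gcd_dvd_left p _)) p0
  rw [natDegree_pow] at l
  obtain ⟨q, hq⟩ := hi.dvd.trans (pow_dvd_pow ψ ((Nat.le_div_iff_mul_le ir.natDegree_pos).2 (l.trans p3)))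
  rw [← map_pow, hq]
  exact K _ _ h0

theorem deg2 [CharP F 3] (hA : B.IsAlt) (hB : B.Nondegenerate) (h6 : finrank F V = 6) {h : End F V}
    (sa : ∀ u v, B (h u) v = B u (h v)) {a b : F} (e : ∀ v, h (h v) = a • h v + b • v)
    (nr : ∀ t, t ^ 2 - a * t - b ≠ 0) : False := by
  have : Nontrivial V := Module.nontrivial_of_finrank_pos (R := F) (by omega)
  obtain ⟨x, x0⟩ := exists_ne (0 : V)
  obtain ⟨y, t⟩ : ∃ y, B x y ≠ 0 := by by_contra! m; exact x0 (hB.1 _ m)
  obtain ⟨y, -, t⟩ := H54.exists_hyperbolic_pair_of_ne_zero (W := ⊤) mem_top t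
  have s := sa_self hA sa
  have y0 : B y x = -1 := by rw [← hA.neg_eq, t]
  have y1 : B y (h x) = -B x (h y) := by rw [← hA.neg_eq, sa]
  obtain ⟨x', y', t', h1, -⟩ := pl4 hA hB h6 ![x, h x, y, h y] (g := h) (fun c e' i => by
    have p0 := e' 0
    have p1 := e' 1
    have p2 := e' 2
    have p3 := e' 3
    simp [Fin.sum_univ_four, sa, e, s, hA x, hA y, t, y0, y1] at p0 p1 p2 p3
    have q1 : c 1 = 0 := (mul_eq_zero.1 (by grobner)).resolve_right (nr (B x (h y)))
    have q3 : c 3 = 0 := (mul_eq_zero.1 (by grobner)).resolve_right (nr (B x (h y)))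
    simp [q1, q3] at p0 p2
    fin_cases i <;> assumption) fun i => ⟨h (![x, h x, y, h y] i), by
      have m : ∀ i, ![x, h x, y, h y] i ∈ span F (Set.range ![x, h x, y, h y]) :=
        fun i => subset_span ⟨i, rfl⟩
      fin_cases i
      exacts [m 1, e x ▸ add_mem (smul_mem _ _ (m 1)) (smul_mem _ _ (m 0)), m 3,
        e y ▸ add_mem (smul_mem _ _ (m 3)) (smul_mem _ _ (m 2))], fun w => (sa _ _).symm⟩
  obtain ⟨p, q, hp⟩ := mem_span_pair.1 h1
  have s1 := s x'
  have s2 := congrArg (B · y') (e x')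
  rw [← hp] at s1
  simp [hA x', t'] at s1
  simp [← hp, s1] at s2
  exact t' ((mul_eq_zero.1 (by linear_combination s2)).resolve_left (nr p))

omit [FiniteDimensional F V] in
theorem deg3 [Finite F] {h : End F V} {ψ : F[X]} (ir : Irreducible ψ) (d3 : ψ.natDegree = 3)
    (e : aeval h ψ = 0) {δ : F} (nr : ∀ c : F, c ^ 3 - c ≠ δ) :
    ∃ p : F[X], aeval h p ^ 3 - aeval h p = δ • 1 := by
  have f3 : (X ^ 3 - X - C δ : F[X]).natDegree = 3 := by compute_degree!
  have := Fact.mk ir
  have i0 := Fact.mk (irreducible_of_degree_le_three_of_not_isRoot (p := X ^ 3 - X - C δ) (by simp [f3])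
    fun x hx => nr x (by simpa [sub_eq_zero] using hx))
  have := (AdjoinRoot.powerBasis ir.ne_zero).finite
  have := Module.finite_of_finite F (M := AdjoinRoot ψ)
  obtain ⟨φ⟩ := FiniteField.nonempty_algHom_of_finrank_dvd (F := F) (K := AdjoinRoot (X ^ 3 - X - C δ))
    (L := AdjoinRoot ψ) (by
      rw [(AdjoinRoot.powerBasis ir.ne_zero).finrank, (AdjoinRoot.powerBasis i0.out.ne_zero).finrank,
        AdjoinRoot.powerBasis_dim, AdjoinRoot.powerBasis_dim, f3, d3])
  obtain ⟨p, hp⟩ := AdjoinRoot.mk_surjective (φ (AdjoinRoot.root _))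
  obtain ⟨q, hq⟩ : ψ ∣ (X ^ 3 - X - C δ).comp p := by
    rw [← AdjoinRoot.mk_eq_zero, ← AdjoinRoot.aeval_eq, aeval_comp, AdjoinRoot.aeval_eq, hp,
      aeval_algHom_apply, AdjoinRoot.aeval_eq, AdjoinRoot.mk_self, map_zero]
  have := congrArg (aeval h) hq
  rw [map_mul, e, zero_mul, aeval_comp] at this
  exact ⟨p, by simpa [sub_eq_zero, Algebra.algebraMap_eq_smul_one] using this⟩

end H77.Cov
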