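/- Job COV-S6N: all elements of `Sp₆` over a finite field of characteristic three. -/
import Cfsg.Agent.H77.CovB1

set_option autoImplicit false

open H60.Cov Module Submodule Polynomial

namespace H77.Cov

variable {F V : Type} [Field F] [AddCommGroup V] [Module F V] {B : LinearMap.BilinForm F V}
  [FiniteDimensional F V] [CharP F 3]

theorem semi (hA : B.IsAlt) (hB : B.Nondegenerate) (h6 : finrank F V = 6) {θ D : End F V} {e : F}
    (e0 : e ≠ 0) (sθ : ∀ u v, B (θ u) v = -B u (θ v)) (sk : ∀ u v, B (D u) v = -B u (D v))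
    (c : θ * D = D * θ) (t2 : ∀ u, θ (θ u) = e • u) (D3 : D ^ 3 = 0) (a y δ : F) :
    Pl B ((1 + D - D ^ 2) * (a • 1 + y • θ)) ∨ Fl B δ ((1 + D - D ^ 2) * (a • 1 + y • θ)) := by
  have d3 : ∀ u, D (D (D u)) = 0 := fun u => congrArg (· u) D3
  have cu : ∀ u, θ (D u) = D (θ u) := fun u => congrArg (· u) c
  have ti : ∀ u, θ u = 0 → u = 0 := fun u h => by
    have := t2 u
    rw [h, map_zero] at this
    exact (smul_eq_zero.1 this.symm).resolve_left e0
  have sa : ∀ u v, B ((D * θ) u) v = B u ((D * θ) v) := fun u v => by simp [sk, sθ, cu]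
  by_cases n2 : D ^ 2 = 0
  · have d2 : ∀ u, D (D u) = 0 := fun u => congrArg (· u) n2
    by_cases n : ∃ x, D x = 0 ∧ B x (θ x) ≠ 0
    · obtain ⟨x, x0, t⟩ := n
      refine .inl ⟨x, θ x, t, mem_span_pair.2 ⟨a, y, ?_⟩, mem_span_pair.2 ⟨y * e, a, ?_⟩⟩
      · simp [n2, x0, ← cu]
      · simp [n2, x0, ← cu, t2, add_comm, mul_smul]
    push Not at n
    have l := ti_le hB h6 (W := LinearMap.ker D) fun x hx z hz => by
      have hz' : D (θ z) = 0 := by rw [← cu, show D z = 0 from hz, map_zero]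
      have := n (x + θ z) (by rw [map_add, hz', show D x = 0 from hx, add_zero])
      simp only [map_add, LinearMap.add_apply, n x hx, ← hA.neg_eq (θ x) (θ z), sθ, t2, map_smul,
        smul_eq_mul, n z hz] at this
      exact (mul_eq_zero.1 (by linear_combination -this + e * B x z * three (F := F))).resolve_left e0
    have l2 := finrank_mono (show LinearMap.range D ≤ LinearMap.ker D by rintro _ ⟨u, rfl⟩; exact d2 u)
    have l3 := LinearMap.finrank_range_add_finrank_ker D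
    have ev := even_ker hA hB h6 sa
    rw [show LinearMap.ker (D * θ) = LinearMap.ker D from Submodule.ext fun u =>
      ⟨fun h => ti _ ((cu u).trans h), fun h => (cu u).symm.trans (by rw [show D u = 0 from h, map_zero])⟩,
      Nat.even_iff] at ev
    omega
  obtain ⟨v, t⟩ := ex_self hA hB (A := D ^ 2 * θ) (fun u v => by simp [pow_succ, sk, sθ, cu]) fun h =>
    n2 (LinearMap.ext fun u => ti _ ((cu _).trans ((congrArg D (cu u)).trans (congrArg (· u) h))))
  replace t : B v (D (D (θ v))) ≠ 0 := t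
  have ev : ∀ u, B u (D (D u)) = 0 := fun u => by rw [← neg_eq_zero, ← sk, hA]
  have s1 : ∀ u, B u (D (θ u)) = 0 := sa_self hA sa
  obtain ⟨p, hp⟩ : ∃ p, B v (D v) - p * B v (D (D (θ v))) = 0 :=
    ⟨_ / B v (D (D (θ v))), by rw [div_mul_cancel₀ _ t, sub_self]⟩
  obtain ⟨q, hq⟩ : ∃ q, B v (θ v) + 2 * p * e * B v (D v) + p * p * e * B v (D (D (θ v))) -
      q * B v (D (D (θ v))) = 0 := ⟨_ / B v (D (D (θ v))), by rw [div_mul_cancel₀ _ t, sub_self]⟩
  obtain ⟨x, x1, x2, x3⟩ : ∃ x, B x (D x) = 0 ∧ B x (θ x) = 0 ∧ B x (D (D (θ x))) ≠ 0 := by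
    refine ⟨v + p • D (θ v) + q • D (D v), ?_, ?_, by simpa [sk, sθ, cu, t2, d3] using t⟩ <;>
      simp [sk, sθ, cu, t2, d3]
    · linear_combination hp + p * B v (D (D (θ v))) * three (F := F)
    · linear_combination hq + q * B v (D (D (θ v))) * three (F := F)
  obtain ⟨k, h1, h2, h3⟩ := jobNF F V B hA h6 D x (θ x) δ sk D3 x1 (by simp [sθ, cu, t2, x1]) x2 (s1 x) x3
  have h4 := h3 θ c (subset_span (by simp)) (t2 x ▸ smul_mem _ _ (subset_span (by simp)))
  refine .inr ⟨k, 1, h1, ?_⟩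
  rw [one_smul, ← mul_assoc, ← h2, mul_assoc, mul_assoc]
  simp [add_mul, mul_add, h4]

theorem deg1 (hA : B.IsAlt) (hB : B.Nondegenerate) (h6 : finrank F V = 6) {R : Type} [CommRing R]
    [Algebra F R] [CharP R 3] (φ : R →ₐ[F] End F V) {G G' : R} {c : F} (h1 : G * G' = 1)
    (h2 : (G + G' - algebraMap F R c) ^ 3 = 0) (ad : ∀ u v, B (φ G u) v = B u (φ G' v)) (δ : F) :
    Pl B (φ G) ∨ Fl B δ (φ G) := by
  have iso : ∀ u v, B (φ G u) (φ G v) = B u v := fun u v => by
    rw [ad, ← End.mul_apply, ← map_mul, mul_comm, h1, map_one, End.one_apply]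
  by_cases c1 : c = -1
  · refine jobS6U F V B hA hB h6 _ δ iso ⟨6, ?_⟩
    rw [c1, map_neg, map_one] at h2
    rw [← map_one φ, ← map_sub, ← map_pow, show (G - 1) ^ 6 = 0 by grobner, map_zero]
  by_cases c2 : c = 1
  · refine neg_inv (jobS6U F V B hA hB h6 _ δ (fun u v => by simp [iso]) ⟨6, ?_⟩)
    rw [c2, map_one] at h2
    rw [← map_one φ, ← map_neg, ← map_sub, ← map_pow, show (-G - 1) ^ 6 = 0 by grobner, map_zero]
  have m0 : c ^ 2 - 1 ≠ 0 := fun e => (sq_eq_one_iff.1 (sub_eq_zero.1 e)).elim c2 c1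
  obtain ⟨y, hy⟩ : ∃ y, y * (c ^ 2 - 1) = -1 := ⟨-(c ^ 2 - 1)⁻¹, by rw [neg_mul, inv_mul_cancel₀ m0]⟩
  have hY := congrArg (algebraMap F R) hy
  simp only [map_mul, map_sub, map_pow, map_one, map_neg] at hY
  let Ad : R → R → Prop := fun a a' => ∀ u v, B (φ a u) v = B u (φ a' v)
  have mul : ∀ a a' b b', Ad a a' → Ad b b' → Ad (a * b) (a' * b') := fun a a' b b' p q u v => by
    rw [mul_comm a', map_mul, map_mul, End.mul_apply, End.mul_apply, p, q]
  have sy : ∀ a a', Ad a a' → Ad a' a := fun a a' p u v => by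
    rw [← hA.neg_eq, ← p, hA.neg_eq]
  have sub : ∀ a a' b b', Ad a a' → Ad b b' → Ad (a - b) (a' - b') := fun a a' b b' p q u v => by
    simp [p u v, q u v]
  have al : ∀ a, Ad (algebraMap F R a) (algebraMap F R a) := fun a u v => by simp
  have skw : ∀ a a', Ad a a' → ∀ u v, B (φ (a - a') u) v = -B u (φ (a - a') v) := fun a a' p u v => by
    simp [p u v, sy _ _ p u v]
  have a3 : Ad (G * G * G) (G' * G' * G') := mul _ _ _ _ (mul _ _ _ _ ad ad) ad
  obtain ⟨θ, hθ⟩ : ∃ θ, θ = G * G * G - G' * G' * G' := ⟨_, rfl⟩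
  have aθ : Ad θ (-θ) := by rw [hθ, neg_sub]; exact sub _ _ _ _ a3 (sy _ _ a3)
  generalize hC : algebraMap F R c = C at h2 hY
  generalize hY' : algebraMap F R y = Y at hY
  have g3 : G ^ 3 + G' ^ 3 = C ^ 3 := by grobner
  have t2 : θ * θ = (C ^ 2 - 1) ^ 3 := by clear h2; grobner
  obtain ⟨s, hs⟩ : ∃ s, s = Y * θ - C := ⟨_, rfl⟩
  obtain ⟨s', hs'⟩ : ∃ s, s = Y * -θ - C := ⟨_, rfl⟩
  have as : Ad s s' := hs ▸ hs' ▸ sub _ _ _ _ (mul _ _ _ _ (hY' ▸ al y) aθ) (hC ▸ al c)
  have ss : s * s' = 1 := by clear h2 g3 hθ; grobner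
  have s3 : s ^ 3 = G ^ 3 := by clear h2; grobner
  have s3' : s' ^ 3 = G' ^ 3 := by clear h2; grobner
  have au := mul _ _ _ _ (sy _ _ ad) as
  have u1 : (G' * s) * (G * s') = 1 := by linear_combination s * s' * h1 + ss
  have u2 : (G' * s) ^ 3 = 1 := by clear h2 g3 hθ hs hs' t2; grobner
  have u3 : (G * s') ^ 3 = 1 := by clear h2 g3 hθ hs hs' t2; grobner
  have eg : G = G * s' * s := by linear_combination -G * ss
  generalize G' * s = u' at au u1 u2
  generalize G * s' = u at au u1 u3 eg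
  have := semi hA hB h6 (θ := φ θ) (D := φ (u' - u)) (pow_ne_zero 3 m0) (fun u v => by simp [aθ u v])
    (skw _ _ au) (by rw [← map_mul, ← map_mul, mul_comm]) (fun v => by
      rw [← End.mul_apply, ← map_mul, t2, ← hC, ← map_one (algebraMap F R), ← map_pow, ← map_sub, ← map_pow,
        AlgHom.commutes, algebraMap_end_apply])
    (by rw [← map_pow, show (u' - u) ^ 3 = 0 by clear h2 g3 hθ hs hs' t2 s3 s3'; grobner, map_zero]) (-c) y δ
  have e : (1 + φ (u' - u) - φ (u' - u) ^ 2) * (-c • 1 + y • φ θ) = φ G := by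
    rw [show G = (1 + (u' - u) - (u' - u) ^ 2) * s from eg.trans (congrArg (· * s)
      (by clear h2 g3 hθ hs hs' t2 s3 s3'; grobner)), hs, ← hC, ← hY']
    simp [Algebra.algebraMap_eq_smul_one, neg_add_eq_sub]
  rwa [e] at this

theorem jobS6N : JobS6N := by
  intro _ _ F V _ _ _ _ _ _ B hA hB h6 g δ nr iso
  have : Nontrivial V := Module.nontrivial_of_finrank_pos (R := F) (by omega)
  obtain ⟨w, rfl⟩ : IsUnit g := (LinearMap.isUnit_iff_ker_eq_bot _).2 (eq_bot_iff.2 fun x hx =>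
    hB.1 x fun y => by rw [← iso, show g x = 0 from hx, LinearMap.map_zero₂])
  have i1 : ∀ v, w.1 (w⁻¹.1 v) = v := fun v => congrArg (· v) w.mul_inv
  have ad : ∀ u v, B (w.1 u) v = B u (w⁻¹.1 v) := fun u v => by rw [← iso u, i1]
  have ad' : ∀ u v, B u (w.1 v) = B (w⁻¹.1 u) v := fun u v => by rw [← iso _ v, i1]
  have sa : ∀ u v, B ((w.1 + w⁻¹.1) u) v = B u ((w.1 + w⁻¹.1) v) := fun u v => by
    simp [ad, ad', add_comm]
  have c0 : Commute w.1 w⁻¹.1 := (Commute.refl _).units_inv_right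
  have c : Commute w.1 (w.1 + w⁻¹.1) := (Commute.refl _).add_right c0
  refine (prim hA hB h6 ad' sa c (c0.symm.add_right (.refl _))).elim .inl fun ⟨ψ, mo, ir, e⟩ => ?_
  have pos := ir.natDegree_pos
  rcases (by omega : ψ.natDegree = 1 ∨ ψ.natDegree = 2 ∨ ψ.natDegree = 3 ∨ 3 < ψ.natDegree) with d | d | d | d
  · rw [d, mo.eq_X_add_C d] at e
    have := Algebra.isMulCommutative_adjoin F (s := {w.1, w⁻¹.1}) (by
      rintro _ (rfl | rfl) _ (rfl | rfl)
      exacts [rfl, c0, c0.symm, rfl])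
    open scoped IsMulCommutative in
    have := charP_of_injective_algebraMap (algebraMap F (Algebra.adjoin F {w.1, w⁻¹.1})).injective 3
    open scoped IsMulCommutative in
    exact deg1 hA hB h6 (Algebra.adjoin F {w.1, w⁻¹.1}).val (G := ⟨w.1, Algebra.subset_adjoin (by simp)⟩)
      (G' := ⟨w⁻¹.1, Algebra.subset_adjoin (by simp)⟩) (c := -ψ.coeff 0) (Subtype.ext w.mul_inv)
      (Subtype.ext (by simpa using e)) ad δ
  · rw [d, pow_one] at e
    have f : ψ = X ^ 2 + C (ψ.coeff 1) * X + C (ψ.coeff 0) := by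
      have := mo.as_sum
      simp only [d, Finset.sum_range_succ, Finset.sum_range_zero] at this
      linear_combination this
    refine (deg2 hA hB h6 sa (a := -ψ.coeff 1) (b := -ψ.coeff 0) (fun v => ?_) fun t ht =>
      ir.not_isRoot_of_natDegree_ne_one (by omega) (x := t) ?_).elim
    · rw [f] at e
      generalize w.1 + w⁻¹.1 = h at e ⊢
      have := congrArg (· v) e
      simp only [map_add, map_mul, aeval_C, aeval_X, pow_two, End.mul_apply,
        LinearMap.add_apply, algebraMap_end_apply, LinearMap.zero_apply] at this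
      linear_combination (norm := module) this
    · rw [f]
      simpa using ht
  · rw [d, pow_one] at e
    obtain ⟨p, hp⟩ := deg3 ir d e nr
    exact .inr ⟨_, 0, ⟨sa_aeval sa p, hp⟩, by rw [zero_smul, add_zero, (co_aeval c p).eq]⟩
  · rw [Nat.div_eq_of_lt d, pow_zero] at e
    exact absurd e one_ne_zero

end H77.Cov
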