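import Cfsg.Agent.H2.KpSpec

/-! S4202, tower KP: slot QQ. -/

set_option autoImplicit false

namespace H77.KpQQ

open Equiv MulAction H2.Ln H2.Kp

theorem jobPrm : Prm := by
  intro α _ _ M tr hB
  refine { isTrivialBlock_of_isBlock := fun {B} hb => ?_ }
  by_contra nt
  classical
  have ex : ∀ a b, ∃ x ∈ M, x a = b := fun a b =>
    let ⟨x, e⟩ := tr.exists_smul_eq a b
    ⟨x, x.2, e⟩
  have b2 : 2 ≤ B.toFinset.card := Finset.one_lt_card.2 (by
    obtain ⟨a, ha, b, hb, ab⟩ := Set.not_subsingleton_iff.1 fun k => nt (.inl k)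
    exact ⟨a, Set.mem_toFinset.2 ha, b, Set.mem_toFinset.2 hb, ab⟩)
  have bn : B.toFinset.card < Fintype.card α := Finset.card_lt_univ_of_notMem
    (x := ((Set.ne_univ_iff_exists_notMem B).1 fun k => nt (.inr k)).choose)
    fun k => ((Set.ne_univ_iff_exists_notMem B).1 fun k => nt (.inr k)).choose_spec
      (Set.mem_toFinset.1 k)
  have su : sp M = Finset.univ := Finset.eq_univ_of_forall fun a => by
    obtain ⟨b, hb⟩ := Fintype.exists_ne_of_one_lt_card (α := α) (by omega) a
    obtain ⟨x, hx, e⟩ := ex a b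
    exact mem_sp.2 ⟨x, hx, e ▸ hb⟩
  exact hB B.toFinset ⟨su ▸ Finset.subset_univ _, b2, su ▸ bn, fun x hx a ha xa b hb' =>
    Set.mem_toFinset.2 ((hb.smul_eq_of_mem (g := ⟨x, hx⟩) (Set.mem_toFinset.1 ha)
      (Set.mem_toFinset.1 xa)).subset (Set.smul_mem_smul_set (Set.mem_toFinset.1 hb')))⟩

theorem jobQQ : Prm → MkS → Core → QQ := by
  intro hP hM hC α _ _ M p hp ih hd n3 tr hB
  by_cases h : ∃ B, Blk M B
  · obtain ⟨B, hb⟩ := h
    obtain ⟨b2, n4⟩ := hB B hb
    obtain ⟨c, S, tr', hl⟩ := hM α M tr B hb b2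
    have e := S.card
    have pr : IsPreprimitive (S.im ⊤) (Fin c) := hP (Fin c) (S.im ⊤) tr' fun C hc => by
      obtain ⟨C', h1, h2⟩ := hl C hc
      have h3 := (hB C' h1).1
      have h4 := hc.2.1
      omega
    have := hC M α (Fin c) 2 S p hp (e ▸ ih) hd (by omega) pr
    rw [← e] at this
    exact this
  · have e : (triv M).im ⊤ = M := by
      show (⊤ : Subgroup M).map M.subtype = M
      rw [← MonoidHom.range_eq_map, Subgroup.range_subtype]
    have pr : IsPreprimitive M α := hP α M tr fun B hb => h ⟨B, hb⟩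
    have := hC M α α 1 (triv M) p hp (by rw [one_mul]; exact ih) hd n3 (by rw [e]; exact pr)
    rw [one_mul] at this
    exact this

end H77.KpQQ
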