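import Cfsg.Agent.H20.LD4Spec
import Cfsg.Agent.H54.SpSimple
import Cfsg.Agent.H55.Transport

/-! LD4-MU42: four braid generators of `PSp₄(3)`. -/

set_option autoImplicit false

namespace H77.MU42

open Cfsg Matrix H54 H20.LD
open scoped commutatorElement

instance fact3 : Fact (Nat.Prime 3) := ⟨by norm_num⟩

abbrev Z3 : Type := ZMod 3
abbrev T4 : Type := Z3 × Z3 × Z3 × Z3
abbrev Sp4 : Type := Matrix.symplecticGroup (Fin 2) Z3

def vec (x : T4) : Fin 2 ⊕ Fin 2 → Z3 := Sum.elim ![x.1, x.2.1] ![x.2.2.1, x.2.2.2]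

def vv : Fin 4 → T4 := ![(1, 0, 0, 0), (0, 0, 1, 0), (1, 1, 0, 0), (0, 0, 0, 1)]

def st (i : Fin 4) (w : T4) : T4 :=
  match i with
  | 0 => (w.1 + w.2.2.1, w.2.1, w.2.2.1, w.2.2.2)
  | 1 => (w.1, w.2.1, w.2.2.1 - w.1, w.2.2.2)
  | 2 => (w.1 + w.2.2.1 + w.2.2.2, w.2.1 + w.2.2.1 + w.2.2.2, w.2.2.1, w.2.2.2)
  | 3 => (w.1, w.2.1, w.2.2.1, w.2.2.2 - w.2.1)

def tt (i : Fin 4) : Sp4 := tv (vec (vv i)) 1

theorem tt_mulVec : ∀ (i : Fin 4) (w : T4),
    tvMat (vec (vv i)) (1 : Z3) *ᵥ vec w = vec (st i w) := by decide +kernel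

theorem tt_smul (i : Fin 4) (w : T4) : tt i • vec w = vec (st i w) := tt_mulVec i w

def run (w : List (Fin 4)) : T4 := w.foldr st (vv 0)

def W : List (List (Fin 4)) :=
  [[], [1], [0, 1], [1, 1], [2, 1], [2, 0, 1], [2, 1, 1], [2, 2, 1], [3, 2, 1], [1, 2, 0, 1],
   [2, 2, 0, 1], [3, 2, 0, 1], [2, 2, 1, 1], [3, 2, 1, 1], [1, 2, 2, 1], [3, 2, 2, 1],
   [3, 3, 2, 1], [3, 1, 2, 0, 1], [3, 2, 2, 0, 1], [3, 3, 2, 0, 1], [3, 2, 2, 1, 1],
   [3, 3, 2, 1, 1], [3, 1, 2, 2, 1], [3, 3, 2, 2, 1], [2, 3, 3, 2, 1], [2, 3, 1, 2, 0, 1],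
   [3, 3, 1, 2, 0, 1], [3, 3, 2, 2, 0, 1], [2, 3, 3, 2, 0, 1], [3, 3, 2, 2, 1, 1],
   [2, 3, 3, 2, 1, 1], [2, 3, 1, 2, 2, 1], [3, 3, 1, 2, 2, 1], [1, 2, 3, 3, 2, 1],
   [1, 2, 3, 3, 2, 1, 1], [2, 2, 3, 1, 2, 2, 1], [2, 3, 3, 1, 2, 2, 1], [0, 1, 2, 3, 3, 2, 1],
   [3, 2, 2, 3, 1, 2, 2, 1], [0, 0, 1, 2, 3, 3, 2, 1]]

theorem cover : ∀ x : T4, x = 0 ∨ ∃ w ∈ W, x = run w ∨ x = -run w := by decide +kernel

theorem tv_run_mem (w : List (Fin 4)) :
    tv (vec (run w)) (1 : Z3) ∈ Subgroup.closure (Set.range tt) := by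
  induction w with
  | nil => exact Subgroup.subset_closure ⟨0, rfl⟩
  | cons i w ih =>
    have h : tt i ∈ Subgroup.closure (Set.range tt) := Subgroup.subset_closure ⟨i, rfl⟩
    have e : run (i :: w) = st i (run w) := rfl
    rw [e, ← tt_smul, ← tv_conj]
    exact mul_mem (mul_mem h ih) (inv_mem h)

theorem vec_neg (x : T4) : vec (-x) = -vec x := by
  funext i
  rcases i with i | i <;> fin_cases i <;> rfl

theorem vec_zero : vec 0 = 0 := by
  funext i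
  rcases i with i | i <;> fin_cases i <;> rfl

theorem vec_surj (v : Fin 2 ⊕ Fin 2 → Z3) : ∃ x, vec x = v := by
  refine ⟨(v (.inl 0), v (.inl 1), v (.inr 0), v (.inr 1)), ?_⟩
  funext i
  rcases i with i | i <;> fin_cases i <;> rfl

theorem z3_cases : ∀ c : Z3, c = 0 ∨ c = 1 ∨ c = -1 := by decide

theorem closure_tt : Subgroup.closure (Set.range tt) = ⊤ := by
  refine eq_top_of_tv_mem _ fun v c => ?_
  have h1 : tv v (1 : Z3) ∈ Subgroup.closure (Set.range tt) := by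
    obtain ⟨x, rfl⟩ := vec_surj v
    rcases cover x with rfl | ⟨w, -, rfl | rfl⟩
    · rw [vec_zero, tv_zero_left]; exact one_mem _
    · exact tv_run_mem w
    · rw [vec_neg, tv_neg_left]; exact tv_run_mem w
  rcases z3_cases c with rfl | rfl | rfl
  · rw [tv_zero]; exact one_mem _
  · exact h1
  · rw [← tv_inv]; exact inv_mem h1

def aa : Sp4 := tv (vec (1, 1, 0, 0)) 1 * tv (vec (1, 0, 0, 0)) (-1) * tv (vec (0, 1, 0, 0)) (-1)
def bb : Sp4 := tv (vec (1, 0, 0, 1)) 1 * tv (vec (1, 0, 0, 0)) (-1) * tv (vec (0, 0, 0, 1)) (-1)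

def am : Matrix (Fin 2 ⊕ Fin 2) (Fin 2 ⊕ Fin 2) Z3 :=
  fromBlocks !![1, 0; 0, 1] !![0, 1; 1, 0] !![0, 0; 0, 0] !![1, 0; 0, 1]
def bm : Matrix (Fin 2 ⊕ Fin 2) (Fin 2 ⊕ Fin 2) Z3 :=
  fromBlocks !![1, -1; 0, 1] !![0, 0; 0, 0] !![0, 0; 0, 0] !![1, 0; 1, 1]

theorem aa_coe : aa.1 = am := by
  change tvMat _ _ * tvMat _ _ * tvMat _ _ = _
  decide +kernel

theorem bb_coe : bb.1 = bm := by
  change tvMat _ _ * tvMat _ _ * tvMat _ _ = _
  decide +kernel

theorem aa3 : aa ^ 3 = 1 := by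
  refine Subtype.ext ?_
  rw [pow_succ, pow_two]
  change aa.1 * aa.1 * aa.1 = 1
  rw [aa_coe]
  decide +kernel

theorem bb3 : bb ^ 3 = 1 := by
  refine Subtype.ext ?_
  rw [pow_succ, pow_two]
  change bb.1 * bb.1 * bb.1 = 1
  rw [bb_coe]
  decide +kernel

theorem ab : bb * aa = tt 0 * aa * bb := by
  refine Subtype.ext ?_
  change bb.1 * aa.1 = tvMat _ _ * aa.1 * bb.1
  rw [aa_coe, bb_coe]
  decide +kernel

theorem comm_ab : ⁅bb, aa⁆ = tt 0 := by
  rw [commutatorElement_def, ab]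
  group

theorem ta : Commute (tt 0) aa := by
  refine Subtype.ext ?_
  change tvMat _ _ * aa.1 = aa.1 * tvMat _ _
  rw [aa_coe]
  decide +kernel

theorem tb : Commute (tt 0) bb := by
  refine Subtype.ext ?_
  change tvMat _ _ * bb.1 = bb.1 * tvMat _ _
  rw [bb_coe]
  decide +kernel

theorem br01 : tt 0 * tt 1 * tt 0 = tt 1 * tt 0 * tt 1 := by
  refine Subtype.ext ?_
  change tvMat _ _ * tvMat _ _ * tvMat _ _ = tvMat _ _ * tvMat _ _ * tvMat _ _
  decide +kernel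

theorem br12 : tt 1 * tt 2 * tt 1 = tt 2 * tt 1 * tt 2 := by
  refine Subtype.ext ?_
  change tvMat _ _ * tvMat _ _ * tvMat _ _ = tvMat _ _ * tvMat _ _ * tvMat _ _
  decide +kernel

theorem br23 : tt 2 * tt 3 * tt 2 = tt 3 * tt 2 * tt 3 := by
  refine Subtype.ext ?_
  change tvMat _ _ * tvMat _ _ * tvMat _ _ = tvMat _ _ * tvMat _ _ * tvMat _ _
  decide +kernel

theorem cm02 : Commute (tt 0) (tt 2) := by
  refine Subtype.ext ?_
  change tvMat _ _ * tvMat _ _ = tvMat _ _ * tvMat _ _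
  decide +kernel

theorem cm03 : Commute (tt 0) (tt 3) := by
  refine Subtype.ext ?_
  change tvMat _ _ * tvMat _ _ = tvMat _ _ * tvMat _ _
  decide +kernel

theorem cm13 : Commute (tt 1) (tt 3) := by
  refine Subtype.ext ?_
  change tvMat _ _ * tvMat _ _ = tvMat _ _ * tvMat _ _
  decide +kernel

theorem tt0_notMem : tt 0 ∉ Subgroup.center Sp4 :=
  tv_notMem_center (by decide) (by decide)

/-- The generators in any group onto which `Sp₄(3)` maps with central kernel. -/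
theorem c32_of_hom {Γ : Type*} [Group Γ] (f : Sp4 →* Γ) (hf : Function.Surjective f)
    (hk : ∀ x, f x = 1 → x ∈ Subgroup.center Sp4) : C32 (fun i => f (tt i)) where
  heis := by
    have e : ⁅f bb, f aa⁆ = f (tt 0) := by rw [← map_commutatorElement, comm_ab]
    refine ⟨f bb, f aa, ⟨?_, ?_, ?_, ?_, ?_⟩, e⟩
    · rw [← map_pow, bb3, map_one]
    · rw [← map_pow, aa3, map_one]
    · rw [e]; exact fun h => tt0_notMem (hk _ h)
    · rw [e]; exact tb.map f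
    · rw [e]; exact ta.map f
  b01 := by simpa only [map_mul] using congrArg f br01
  b12 := by simpa only [map_mul] using congrArg f br12
  b23 := by simpa only [map_mul] using congrArg f br23
  c02 := cm02.map f
  c03 := cm03.map f
  c13 := cm13.map f
  gen := by
    have : Set.range (fun i => f (tt i)) = f '' Set.range tt := by
      rw [← Set.range_comp]; rfl
    rw [this, ← MonoidHom.map_closure, closure_tt, Subgroup.map_top_of_surjective f hf]

theorem jobMU42 : H20.LD.JobMU42 := by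
  intro K _ _ hK
  let e : Z3 ≃+* K := FiniteField.ringEquivOfCardEq (by rw [hK, ZMod.card])
  let φ := H55.pspCongr e 2
  refine ⟨_, c32_of_hom (φ.toMonoidHom.comp (QuotientGroup.mk' (Subgroup.center Sp4)))
    (φ.surjective.comp (QuotientGroup.mk'_surjective _)) fun x hx => ?_⟩
  have : (QuotientGroup.mk' (Subgroup.center Sp4)) x = 1 := by
    apply φ.injective
    rw [map_one]
    exact hx
  exact (QuotientGroup.eq_one_iff x).1 this

end H77.MU42
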