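import Cfsg.Agent.H90.Q3Spec

/-! Slot CB of the blueprint `Q3.md`: the closed root sets containing `D₃`. -/

set_option autoImplicit false

namespace H77.Q3CB
open H90.Q3

/-- the 36 pairs of roots and `e4` -/
def rt (j : ℕ) : V :=
  let c : ℕ := 40752585879336129240044644227656180503212188762325197155508573060459132777737724284619453 >>> (8 * j) % 256
  ⟨(c : ℕ), (c / 3 : ℕ), (c / 9 : ℕ), (c / 27 : ℕ), (c / 81 : ℕ)⟩

/-- the table of the reflections -/
def tab : ℕ := 3664830956903519254279000735833835633594752731016668034058644056294819325922138666819937202750529965815465406718995541697661902592830518925732298840310618304884107075794705681495987182221358211626186899522930426164611777094721151167154612855104682272986644800744626284294589722926649649592022800189410475924656693215441053479256661430679523438860032899172130311890787038426569626173428021577316606695116432773524340520143910638825320777395007963835104934916350437050124571850874677994724299001863388527850107952799710286853120427563022796776037721594450936773429483651226493709593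4235130811201363552458926409139520540886086969510006026033152491612733885418119459235788446818626275635917449182581390999413403821289803669492959430461926005536200141654530547434689825796541390139073185422009880617969599824937783079003593771753681976119258329108441933523227276830611282327311202221294835543902295979231454743999052064044143763749114820733204982061445678676010711921955238884995518034271619199383149539373865637401151770167765544896421622696762724651836264862586040889322413006187082969707817712081643342381063091347805361825975859630225516373486213015584255222173046115822394477362916618067496447010730611355414992544057948661738124023391144322183080121668921173964446575680498256418484586271008646982261982644761063813766565696138054367616695687738384819973556416640865038037883372659724598320905279679162428659897932602664117601086936444834292894648857781073921369376325678779646536894868243807202384829563167598206644419878766973285290218675007965614096302565266391695782238837343422790357430583533526476358567122952514320201493074612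7080442400563750873973474422837193072475044004436201747371135984699588770857268299777349529552710248950841217714725225001187447442134572828926129352350712470746872630928505718475946869461330470495429611981599819841542637238816970771489141920902646839053244401610715167953904567009513663327344909018299174099465678166523370185098776303361303816860761414163715005624528617689217618781250980916257911331706303053419669456698684560897398258539819444478428121037003618381254851895869792125153865197847084434028405794072117136769123472098864795387063118253307288548445866189354350205797772825749612567933512985410345655419410692588493966006213792542666226687865235231673243706584922246034869196186065690483312833163189598920279160807088041754937037169455801012355009439440048256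

/-- a row of the table -/
def row (i : ℕ) : ℕ := tab >>> (216 * i) % 2 ^ 216
/-- the reflections on the pairs -/
def T (i j : ℕ) : ℕ := row i >>> (6 * j) % 64

/-- `y` lies in the pair `j` -/
def pm (y : V) (j : ℕ) : Prop := j < 36 ∧ (y = rt j ∨ y = ng (rt j))
instance (y : V) (j : ℕ) : Decidable (pm y j) := by unfold pm; infer_instance

theorem hT : ∀ i < 37, ∀ j < 36, pm (rf (rt i) (rt j)) (T i j) := by decide +kernel
theorem hx : ∀ x, Ro x → ∃ j < 36, pm x j := by decide +kernel

theorem pm.ng {y : V} {j : ℕ} (h : pm y j) : pm (ng y) j :=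
  ⟨h.1, h.2.elim (fun e => .inr (e ▸ rfl)) fun e => .inl (by rw [e, ng_ng])⟩

theorem pm.rf {y : V} {i j : ℕ} (hi : i < 37) (h : pm y j) : pm (rf (rt i) y) (T i j) := by
  rcases h.2 with rfl | rfl
  exacts [hT i hi j h.1, rf_ng _ _ ▸ (hT i hi j h.1).ng]

theorem pm.sh {y : V} {j : ℕ} (h : pm y j) {w : List ℕ} (hw : ∀ i ∈ w, i < 37) :
    pm (sh (w.map rt) y) (w.foldr T j) := by
  induction w with
  | nil => exact h
  | cons a w ih => exact (ih fun b hb => hw b (List.mem_cons_of_mem _ hb)).rf (hw a List.mem_cons_self)

/-- evaluate the argument first -/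
def force (n : ℕ) (f : ℕ → ℕ) : ℕ := Nat.casesOn n (f 0) fun m => f (m + 1)
theorem force_eq (n : ℕ) (f : ℕ → ℕ) : force n f = f n := by cases n <;> rfl
/-- a loop -/
noncomputable def lp (A : ℕ) (f : ℕ → ℕ → ℕ) (n : ℕ) : ℕ := Nat.rec A f n
/-- add the images under one reflection -/
noncomputable def ap (S g : ℕ) : ℕ := force (row g) fun ρ => force S fun S =>
  lp S (fun j A => A.lor (((S.shiftRight j).mod 2).shiftLeft ((ρ.shiftRight (Nat.mul 6 j)).mod 64))) 36
/-- one pass -/
noncomputable def pas (G A : ℕ) : ℕ := force G fun G => lp A (fun g B => cond (G.testBit g) (ap B g) B) 36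
/-- the closure -/
noncomputable def cl (S : ℕ) : ℕ := pas S (pas S S)
/-- the forbidden pairs -/
def bp : List (ℕ × ℕ) := [(0, 1), (0, 2), (1, 2), (3, 4), (3, 5), (4, 5)]
/-- the five types -/
def PP : Fin 5 → V → Prop := ![pA4, pA41, pD5, pD4, pD32]
/-- the five types -/
def mk : Fin 5 → ℕ := ![5592257, 5592273, 16777161, 16357824, 14680521]
/-- the closed sets, a word and the type -/
def nodes : List (ℕ × List ℕ × Fin 5) := [(14680512, [], 4), (14680513, [], 4), (9745465794, [0, 1, 4, 3], 0), (17764975044, [1, 4, 3], 0), (14680520,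
  [], 4), (6591349200, [1, 0, 3, 4, 36], 0), (34659631584, [1, 0, 4, 36], 0), (15099840, [0], 3), (16357824, [],
  3), (14680521, [], 4), (6591349201, [1, 0, 3, 4, 36], 1), (34659631585, [1, 0, 4, 36], 1), (16777161, [], 2),
  (9745465802, [0, 1, 4, 3], 1), (16323811794, [0, 1, 3, 4], 2), (44390836194, [0, 1, 4], 2), (17764975052, [1,
  4, 3], 1), (24342063060, [1, 3, 4], 2), (52411603428, [1, 4], 2)]

theorem hbp : ∀ p ∈ bp, p.1 < 36 ∧ p.2 < 36 ∧ pL (rt p.1) ∧ pL (ng (rt p.2)) ∧ dot (rt p.1) (ng (rt p.2)) = 1 ∧
    ng (rt p.2) ≠ ng (rt p.1) ∧ (rt p.1).x3 ≠ 0 := by decide +kernel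

instance (k : Fin 5) (y : V) : Decidable (PP k y) := match k with
  | 0 => instDec5 y | 1 => instDec6 y | 2 => instDec1 y | 3 => instDec2 y | 4 => instDec4 y

theorem hP (k : Fin 5) {y : V} {j : ℕ} (h : pm y j) : PP k y ↔ (mk k).testBit j := by
  have := (by decide +kernel : ∀ k, ∀ j < 36, (PP k (rt j) ↔ (mk k).testBit j) ∧
    (PP k (ng (rt j)) ↔ (mk k).testBit j)) k j h.1
  rcases h.2 with rfl | rfl
  exacts [this.1, this.2]

theorem step : ∀ n ∈ nodes, ∀ r < 36, n.1.testBit r ∨ (∃ p ∈ bp, (cl (n.1 ||| 2 ^ r)).testBit p.1 ∧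
    (cl (n.1 ||| 2 ^ r)).testBit p.2) ∨ ∃ m ∈ nodes, m.1 = cl (n.1 ||| 2 ^ r) ∧ n.1 < m.1 := by decide +kernel

theorem good : ∀ n ∈ nodes, (∀ i ∈ n.2.1, i < 37 ∧ rt i ∈ NL) ∧ (n.2.2 = 4 → ∀ j < 36, n.1.testBit j → (mk 4).testBit j) ∧
    (n.2.2 ≠ 4 → ∀ j < 36, n.1.testBit (n.2.1.foldr T j) = (mk n.2.2).testBit j) := by decide +kernel

variable {R : V → Prop} (c : Cl R)
include c

theorem iff_pm {y : V} {j : ℕ} (h : pm y j) : R y ↔ R (rt j) := by
  rcases h.2 with rfl | rfl
  exacts [Iff.rfl, ⟨fun k => ng_ng (rt j) ▸ c.ng _ k, c.ng _⟩]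

omit c in
/-- the pairs of `S` lie in `R` -/
def Sub (R : V → Prop) (S : ℕ) : Prop := ∀ j < 36, S.testBit j → R (rt j)

omit c in
theorem Sub.or {S r : ℕ} (h : Sub R S) (k : R (rt r)) : Sub R (S ||| 2 ^ r) := fun j hj e => by
  rw [Nat.testBit_or, Bool.or_eq_true, Nat.testBit_two_pow, decide_eq_true_eq] at e
  exact e.elim (h j hj) fun e => e ▸ k

omit c in
theorem loop {f : ℕ → ℕ → ℕ} {A : ℕ} (h : Sub R A) (n : ℕ) (hf : ∀ j < n, ∀ B, Sub R B → Sub R (f j B)) :
    Sub R (lp A f n) := by
  induction n with
  | zero => exact h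
  | succ n ih => exact hf n (by omega) _ (ih fun j hj => hf j (by omega))

theorem Sub.pas {G A : ℕ} (h : Sub R G) (k : Sub R A) : Sub R (pas G A) := by
  rw [H77.Q3CB.pas, force_eq]
  refine loop k 36 fun g hg B hB => ?_
  cases e : G.testBit g
  · exact hB
  rw [cond_true, ap, force_eq, force_eq]
  refine loop hB 36 fun j hj A hA => ?_
  show Sub R (A ||| (B >>> j % 2) <<< T g j)
  rcases Nat.mod_two_eq_zero_or_one (B >>> j) with e' | e' <;> rw [e']
  · simpa using hA
  · rw [Nat.one_shiftLeft]
    exact hA.or ((iff_pm c (hT g (by omega) j hj)).1 (c.rf _ _ (h g hg e)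
      (hB j hj (by simp [Nat.testBit, e']))))

theorem Sub.cl {S : ℕ} (h : Sub R S) : Sub R (cl S) := h.pas c (h.pas c h)

end H77.Q3CB

open H77.Q3CB H90.Q3 in
theorem H77.Q3CB.jobCB : JobCB := fun R c h2 => by
  classical
  have s0 : Sub R (cl (0 ||| 2 ^ 6 ||| 2 ^ 7 ||| 2 ^ 8)) :=
    Sub.cl c (Sub.or (Sub.or (Sub.or (fun j _ e => by rw [Nat.zero_testBit] at e; cases e)
      ((by decide +kernel : a0 = rt 6) ▸ c.r0)) ((by decide +kernel : a1 = rt 7) ▸ c.r1))
      ((by decide +kernel : b2 = rt 8) ▸ h2))
  obtain ⟨n, hn, mx⟩ := (nodes.toFinset.filter fun n => Sub R n.1).exists_max_image (·.1)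
    ⟨(14680512, [], 4), by
      rw [Finset.mem_filter, List.mem_toFinset]
      exact ⟨List.mem_cons_self, (by decide +kernel : cl (0 ||| 2 ^ 6 ||| 2 ^ 7 ||| 2 ^ 8) = 14680512) ▸ s0⟩⟩
  rw [Finset.mem_filter, List.mem_toFinset] at hn
  have key : ∀ y j, pm y j → (R y ↔ n.1.testBit j) := fun y j h => by
    refine (iff_pm c h).trans ⟨fun k => ?_, hn.2 j h.1⟩
    have s := (hn.2.or k).cl c
    rcases step n hn.1 j h.1 with e | ⟨p, hp, e1, e2⟩ | ⟨m, hm, e, lt⟩
    · exact e
    · obtain ⟨l1, l2, p1, p2, d, ne, x3⟩ := hbp p hp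
      exact absurd (c.no _ _ (s _ l1 e1) (c.ng _ (s _ l2 e2)) p1 p2 d ne) x3
    · exact absurd (mx m (Finset.mem_filter.2 ⟨List.mem_toFinset.2 hm, e ▸ s⟩)) lt.not_ge
  obtain ⟨g1, g2, g3⟩ := good n hn.1
  by_cases k : n.2.2 = 4
  · refine .inl fun x h => ?_
    obtain ⟨j, hj, e⟩ := hx x (c.ro x h)
    exact (hP 4 e).2 (g2 k j hj ((key x j e).1 h))
  have nl : ∀ a ∈ n.2.1.map rt, a ∈ NL := fun a ha => by
    obtain ⟨i, hi, rfl⟩ := List.mem_map.1 ha
    exact (g1 i hi).2
  refine .inr ⟨_, nl, PP n.2.2, ?_, fun x => ?_⟩
  · generalize n.2.2 = i at k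
    fin_cases i
    exacts [.inl rfl, .inr (.inl rfl), .inr (.inr (.inl rfl)), .inr (.inr (.inr rfl)), absurd rfl k]
  have : Ro x → (R (sh (n.2.1.map rt) x) ↔ PP n.2.2 x) := fun r => by
    obtain ⟨j, hj, e⟩ := hx x r
    rw [key _ _ (e.sh fun i hi => (g1 i hi).1), g3 k j hj, hP _ e]
  exact ⟨fun h => have r : Ro x := (dot_sh (fun a ha => NL_ne a (nl a ha)) x x).symm.trans (c.ro _ h)
    ⟨r, (this r).1 h⟩, fun h => (this h.1).2 h.2⟩
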